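import Cfsg.Agent.Lib.CharDeep.BlichA

/-!
# A minimal non-`p`-closed subgroup of a linear group of small degree

`G` has a faithful character of degree `n` with `n + 1 < p`, all its proper subgroups are
`p`-closed, and `(n + 1)² ≤ |P|` for a Sylow `p`-subgroup `P`.  Then `P` is normal.
-/

set_option autoImplicit false
set_option linter.unusedSectionVars false

namespace Cfsg.Agent.Lib.CharDeep.BlichB

open Cfsg
open Cfsg.Agent.Lib.Char.Ortho Cfsg.Agent.Lib.Char.Basic Cfsg.Agent.Lib.Char.Complete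
  Cfsg.Agent.Lib.Char.Degree Cfsg.Agent.Lib.Char.Induced Cfsg.Agent.Lib.Char.Conj
  Cfsg.Agent.Lib.Coh.DegSum Cfsg.Agent.Lib.OddChar.FixedClass
  Cfsg.Agent.Lib.CharDeep.FrobRelevant Cfsg.Agent.Lib.CharDeep.FTBound
  Cfsg.Agent.Lib.CharDeep.BlichA
open scoped ComplexConjugate Pointwise

variable {G : Type*} [Group G]

/-- Any two `p`-subgroups of `L` generate a `p`-subgroup. -/
def PClosed (p : ℕ) (L : Subgroup G) : Prop :=
  ∀ S₁ S₂ : Subgroup G, IsPGroup p S₁ → IsPGroup p S₂ → S₁ ≤ L → S₂ ≤ L → IsPGroup p ↥(S₁ ⊔ S₂)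

theorem comm_of_linear {A : Type*} [Group A] [Fintype A] {τ : A → ℂ} (hτ : IsCharacter A τ)
    (hfaith : ∀ g, τ g = τ 1 → g = 1)
    (hlin : ∀ θ, IsIrrCharacter A θ → classInner τ θ ≠ 0 → θ 1 = 1) (a b : A) :
    a * b = b * a := by
  classical
  have hτc := isClassFunction_of_isCharacter hτ
  have hc : τ (a * b * a⁻¹ * b⁻¹) = τ 1 := by
    rw [apply_eq_sum hτc (a * b * a⁻¹ * b⁻¹), apply_eq_sum hτc 1]
    refine Finset.sum_congr rfl fun θ hθ' => ?_
    by_cases hm : classInner τ θ = 0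
    · rw [hm, zero_mul, zero_mul]
    · have hθ := mem_irrFinset.mp hθ'
      obtain ⟨lam, hlam⟩ := Cfsg.Agent.Lib.Char.Linear.exists_hom_of_deg_one
        (isCharacter_of_isIrrCharacter hθ) (hlin θ hθ hm)
      congr 1
      rw [hlam]
      simp only [map_mul, map_inv, map_one]
      rw [mul_comm (lam a) (lam b), mul_assoc (lam b), mul_inv_cancel, mul_one, mul_inv_cancel]
  have h1 := hfaith _ hc
  have h2 : a * b * a⁻¹ = b := mul_inv_eq_one.mp h1
  exact mul_inv_eq_iff_eq_mul.mp h2

section Core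

variable [Fintype G] {p : ℕ} [Fact p.Prime]

theorem pgroup_comm {τ : G → ℂ} (hτ : IsCharacter G τ) (hfaith : ∀ g, τ g = τ 1 → g = 1)
    (hn : charDegree τ < p) (S : Subgroup G) (hS : IsPGroup p S) :
    ∀ a ∈ S, ∀ b ∈ S, a * b = b * a := by
  classical
  have hp : p.Prime := Fact.out
  letI : Fintype S := Fintype.ofFinite _
  set τS : S → ℂ := fun a => τ a with hτS
  have hτSc : IsCharacter S τS := isCharacter_restrict S hτ
  have hdeg : charDegree τS = charDegree τ := by
    apply charDegree_eq_of_eq_natCast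
    change τ 1 = _
    rw [charDegree_natCast hτ]
  have hcomm := comm_of_linear hτSc (fun g hg => Subtype.ext (hfaith _ hg)) (by
    intro θ hθ hm
    have hθc := isCharacter_of_isIrrCharacter hθ
    have hle : charDegree θ ≤ charDegree τS :=
      Cfsg.Agent.Lib.Char.Clifford.deg_le_of_constituent hτSc hθ hm
        (charDegree_natCast hτSc).symm (charDegree_natCast hθc).symm
    obtain ⟨k, hk⟩ := IsPGroup.iff_card.mp hS
    have hdvd : charDegree θ ∣ p ^ k := hk ▸ charDegree_dvd_card hθ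
    obtain ⟨j, -, hj⟩ := (Nat.dvd_prime_pow hp).mp hdvd
    have hlt : p ^ j < p ^ 1 := by
      rw [← hj, pow_one]
      omega
    have hj0 : j = 0 := by
      have := (Nat.pow_lt_pow_iff_right hp.one_lt).mp hlt
      omega
    rw [← charDegree_natCast hθc, hj, hj0]
    simp)
  intro a ha b hb
  exact congrArg Subtype.val (hcomm ⟨a, ha⟩ ⟨b, hb⟩)

theorem sup_eq_top_of_ne (hmin : ∀ L : Subgroup G, L ≠ ⊤ → PClosed p L) {P₁ P₂ : Sylow p G}
    (hne : P₁ ≠ P₂) : (P₁ : Subgroup G) ⊔ P₂ = ⊤ := by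
  by_contra h
  have hp := hmin _ h P₁ P₂ P₁.isPGroup' P₂.isPGroup' le_sup_left le_sup_right
  have e1 := P₁.is_maximal' hp le_sup_left
  have e2 := P₂.is_maximal' hp le_sup_right
  exact hne (Sylow.ext (e1.symm.trans e2))

theorem central_of_mem_two (hmin : ∀ L : Subgroup G, L ≠ ⊤ → PClosed p L)
    (hab : ∀ S : Subgroup G, IsPGroup p S → ∀ a ∈ S, ∀ b ∈ S, a * b = b * a)
    {P₁ P₂ : Sylow p G} (hne : P₁ ≠ P₂) {z : G} (h1 : z ∈ P₁) (h2 : z ∈ P₂) :
    z ∈ Subgroup.center G := by
  have htop : Subgroup.centralizer ({z} : Set G) = ⊤ := by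
    rw [eq_top_iff, ← sup_eq_top_of_ne hmin hne, sup_le_iff]
    constructor
    · intro b hb
      rw [Subgroup.mem_centralizer_singleton_iff]
      exact hab _ P₁.isPGroup' b hb z h1
    · intro b hb
      rw [Subgroup.mem_centralizer_singleton_iff]
      exact hab _ P₂.isPGroup' b hb z h2
  rw [Subgroup.mem_center_iff]
  intro g
  have : g ∈ Subgroup.centralizer ({z} : Set G) := by rw [htop]; trivial
  rwa [Subgroup.mem_centralizer_singleton_iff] at this

theorem mem_smul_sylow {P : Sylow p G} {a x : G} : x ∈ (a • P : Sylow p G) ↔ a⁻¹ * x * a ∈ P := by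
  change x ∈ MulAut.conj a • (P : Subgroup G) ↔ _
  rw [Subgroup.mem_pointwise_smul_iff_inv_smul_mem]
  simp only [MulAut.smul_def, map_inv, MulAut.inv_apply, MulAut.conj_symm_apply]
  exact Iff.rfl

theorem coe_smul_eq_map {P : Sylow p G} (a : G) :
    ((a • P : Sylow p G) : Subgroup G) = (P : Subgroup G).map (MulAut.conj a).toMonoidHom := rfl

theorem hone_sylow (hmin : ∀ L : Subgroup G, L ≠ ⊤ → PClosed p L)
    (hab : ∀ S : Subgroup G, IsPGroup p S → ∀ a ∈ S, ∀ b ∈ S, a * b = b * a)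
    (P : Sylow p G) (hZ : (P : Subgroup G) ⊓ Subgroup.center G = ⊥) (g : G)
    (hg : g ∉ Subgroup.center G) (a b : G)
    (h1 : Subgroup.centralizer ({g} : Set G) ⊓ (P : Subgroup G).map (MulAut.conj a).toMonoidHom ≠ ⊥)
    (h2 : Subgroup.centralizer ({g} : Set G) ⊓ (P : Subgroup G).map (MulAut.conj b).toMonoidHom ≠ ⊥) :
    (P : Subgroup G).map (MulAut.conj a).toMonoidHom =
      (P : Subgroup G).map (MulAut.conj b).toMonoidHom := by
  classical
  rw [← coe_smul_eq_map] at h1 h2 ⊢
  rw [← coe_smul_eq_map]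
  obtain ⟨⟨x, hx⟩, hx1⟩ := Subgroup.ne_bot_iff_exists_ne_one.mp h1
  obtain ⟨⟨y, hy⟩, hy1⟩ := Subgroup.ne_bot_iff_exists_ne_one.mp h2
  have hx1' : x ≠ 1 := fun h => hx1 (Subtype.ext h)
  have hy1' : y ≠ 1 := fun h => hy1 (Subtype.ext h)
  obtain ⟨hxL, hxP⟩ := Subgroup.mem_inf.mp hx
  obtain ⟨hyL, hyP⟩ := Subgroup.mem_inf.mp hy
  set L := Subgroup.centralizer ({g} : Set G) with hL
  have hLtop : L ≠ ⊤ := by
    intro h
    apply hg
    rw [Subgroup.mem_center_iff]
    intro k
    have : k ∈ L := by rw [h]; trivial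
    rw [hL, Subgroup.mem_centralizer_singleton_iff] at this
    exact this
  have hcen : ∀ (Q : Sylow p G) (c w : G), w ∈ (c • P : Sylow p G) → w ≠ 1 → w ∈ Q →
      (c • P : Sylow p G) = Q := by
    intro Q c w hw hw1 hwQ
    by_contra hne
    have hz := central_of_mem_two hmin hab hne hw hwQ
    apply hw1
    have h3 : c⁻¹ * w * c ∈ P := mem_smul_sylow.mp hw
    have h4 : c⁻¹ * w * c = w := by
      rw [mul_assoc, (Subgroup.mem_center_iff.mp hz c).symm]
      group
    rw [h4] at h3
    have : w ∈ (P : Subgroup G) ⊓ Subgroup.center G := Subgroup.mem_inf.mpr ⟨h3, hz⟩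
    rw [hZ] at this
    exact this
  have hpx : IsPGroup p (Subgroup.zpowers x) :=
    (a • P : Sylow p G).isPGroup'.to_le (Subgroup.zpowers_le.mpr hxP)
  have hpy : IsPGroup p (Subgroup.zpowers y) :=
    (b • P : Sylow p G).isPGroup'.to_le (Subgroup.zpowers_le.mpr hyP)
  have hsup := hmin L hLtop _ _ hpx hpy (Subgroup.zpowers_le.mpr hxL) (Subgroup.zpowers_le.mpr hyL)
  obtain ⟨Q, hQ⟩ := hsup.exists_le_sylow
  have hxQ : x ∈ Q := hQ (Subgroup.mem_sup_left (Subgroup.mem_zpowers x))
  have hyQ : y ∈ Q := hQ (Subgroup.mem_sup_right (Subgroup.mem_zpowers y))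
  rw [hcen Q a x hxP hx1' hxQ, hcen Q b y hyP hy1' hyQ]

theorem no_normal_above (hmin : ∀ L : Subgroup G, L ≠ ⊤ → PClosed p L) (P : Sylow p G)
    (hnn : ¬ (P : Subgroup G).Normal) (M : Subgroup G) (hM : M.Normal) (hPM : (P : Subgroup G) ≤ M) :
    M = ⊤ := by
  by_contra hne
  apply hnn
  refine ⟨fun n hn g => ?_⟩
  have hle : ((g • P : Sylow p G) : Subgroup G) ≤ M := by
    intro y hy
    have h3 := hPM (mem_smul_sylow.mp hy)
    have h4 := hM.conj_mem _ h3 g
    have e : g * (g⁻¹ * y * g) * g⁻¹ = y := by group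
    rwa [e] at h4
  have hp := hmin M hne _ _ P.isPGroup' (g • P : Sylow p G).isPGroup' hPM hle
  have e1 := P.is_maximal' hp le_sup_left
  have e2 := (g • P : Sylow p G).is_maximal' hp le_sup_right
  have e3 : ((g • P : Sylow p G) : Subgroup G) = P := e2.symm.trans e1
  rw [← e3]
  refine mem_smul_sylow.mpr ?_
  have e : g⁻¹ * (g * n * g⁻¹) * g = n := by group
  rw [e]
  exact hn

theorem false_of_center_trivial {τ : G → ℂ} (hτ : IsCharacter G τ)
    (hfaith : ∀ g, τ g = τ 1 → g = 1) (hn : charDegree τ + 1 < p)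
    (hmin : ∀ L : Subgroup G, L ≠ ⊤ → PClosed p L) (P : Sylow p G)
    (hsize : (charDegree τ + 1) ^ 2 ≤ Nat.card P) (hnn : ¬ (P : Subgroup G).Normal)
    (hZ : (P : Subgroup G) ⊓ Subgroup.center G = ⊥) : False := by
  classical
  have hab : ∀ S : Subgroup G, IsPGroup p S → ∀ a ∈ S, ∀ b ∈ S, a * b = b * a :=
    fun S hS => pgroup_comm hτ hfaith (by omega) S hS
  -- a nonlinear constituent
  have hex : ∃ χ, IsIrrCharacter G χ ∧ classInner τ χ ≠ 0 ∧ χ 1 ≠ 1 := by
    by_contra hcon
    push Not at hcon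
    have hcomm := comm_of_linear hτ hfaith (fun θ hθ hm => hcon θ hθ hm)
    apply hnn
    refine ⟨fun n hn g => ?_⟩
    have e : g * n * g⁻¹ = n := by rw [hcomm g n]; group
    rw [e]
    exact hn
  obtain ⟨χ, hχ, hm, hχ1⟩ := hex
  have hχc := isCharacter_of_isIrrCharacter hχ
  letI : Fintype (P : Subgroup G) := Fintype.ofFinite _
  have hbound := second_bound (P : Subgroup G) (hab _ P.isPGroup') hZ
    (fun g hg a b h1 h2 => hone_sylow hmin hab P hZ g hg a b h1 h2) hχ hχ1
    (fun M hM hPM => no_normal_above hmin P hnn M hM hPM)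
  have hle : charDegree χ ≤ charDegree τ :=
    Cfsg.Agent.Lib.Char.Clifford.deg_le_of_constituent hτ hχ hm
      (charDegree_natCast hτ).symm (charDegree_natCast hχc).symm
  have hre : (χ 1).re = (charDegree χ : ℝ) := by
    rw [← charDegree_natCast hχc]; simp
  rw [hre] at hbound
  have h1 : ((Nat.card P : ℕ) : ℝ) < ((1 + charDegree χ : ℕ) : ℝ) ^ 2 := by
    push_cast
    exact hbound
  have h2 : Nat.card P < (1 + charDegree χ) ^ 2 := by exact_mod_cast h1
  have h3 : (1 + charDegree χ) ^ 2 ≤ (charDegree τ + 1) ^ 2 :=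
    Nat.pow_le_pow_left (by omega) 2
  have h4 : Nat.card (P : Subgroup G) = Nat.card P := rfl
  omega

theorem exists_index_prime_of_hom {B : Type*} [Group B] [Finite B] (f : G →* B)
    (hB : IsPGroup p B) (hcomm : ∀ a b : B, a * b = b * a) (hf : ∃ g, f g ≠ 1) :
    ∃ M : Subgroup G, M.Normal ∧ M.index = p := by
  have hp : p.Prime := Fact.out
  have hR : IsPGroup p f.range := hB.to_subgroup f.range
  obtain ⟨k, hk⟩ := IsPGroup.iff_card.mp hR
  have hk0 : k ≠ 0 := by
    rintro rfl
    obtain ⟨g, hg⟩ := hf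
    have h1 : Nat.card f.range = 1 := by simpa using hk
    have h2 : Subsingleton f.range := (Nat.card_eq_one_iff_unique.mp h1).1
    have h3 := Subsingleton.elim (⟨f g, ⟨g, rfl⟩⟩ : f.range) 1
    exact hg (congrArg Subtype.val h3)
  obtain ⟨K, hK⟩ := Sylow.exists_subgroup_card_pow_prime (G := f.range) p (n := k - 1)
    (by rw [hk]; exact pow_dvd_pow _ (by omega))
  have hKn : K.Normal := ⟨fun n hn g => by
    have e : g * n * g⁻¹ = n := by
      apply Subtype.ext
      change (g : B) * n * (g : B)⁻¹ = n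
      rw [hcomm (g : B) n]
      group
    rw [e]
    exact hn⟩
  have hKidx : K.index = p := by
    have h1 := K.card_mul_index
    rw [hK, hk] at h1
    have h2 : p ^ k = p ^ (k - 1) * p := by
      rw [← pow_succ]
      congr 1
      omega
    rw [h2] at h1
    exact Nat.eq_of_mul_eq_mul_left (pow_pos hp.pos _) h1
  refine ⟨K.comap f.rangeRestrict, hKn.comap _, ?_⟩
  rw [Subgroup.index_comap_of_surjective _ f.rangeRestrict_surjective, hKidx]

theorem center_trivial_or_index (P : Sylow p G) (hab : ∀ a ∈ P, ∀ b ∈ P, a * b = b * a) :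
    (P : Subgroup G) ⊓ Subgroup.center G = ⊥ ∨ ∃ M : Subgroup G, M.Normal ∧ M.index = p := by
  classical
  have hp : p.Prime := Fact.out
  letI instC : CommGroup (P : Subgroup G) :=
    { (inferInstance : Group (P : Subgroup G)) with
      mul_comm := fun a b => Subtype.ext (hab a a.2 b b.2) }
  let ϕ : (P : Subgroup G) →* (P : Subgroup G) := MonoidHom.id _
  let V : G →* (P : Subgroup G) := ϕ.transfer
  by_cases hV : ∃ g, V g ≠ 1
  · right
    exact exists_index_prime_of_hom V P.isPGroup' (fun a b => mul_comm a b) hV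
  · left
    push Not at hV
    rw [Subgroup.eq_bot_iff_forall]
    intro z hz
    obtain ⟨hzP, hzc⟩ := Subgroup.mem_inf.mp hz
    have h1 := MonoidHom.transfer_eq_pow ϕ z (fun k g₀ _ => by
      have hzk : z ^ k ∈ Subgroup.center G := Subgroup.pow_mem _ hzc k
      rw [mul_assoc, (Subgroup.mem_center_iff.mp hzk g₀).symm]
      group)
    have h2 : z ^ (P : Subgroup G).index = 1 := congrArg Subtype.val (h1.symm.trans (hV z))
    obtain ⟨k, hk⟩ := P.isPGroup' ⟨z, hzP⟩
    have h3 : z ^ (p ^ k) = 1 := congrArg Subtype.val hk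
    have h4 : orderOf z ∣ (P : Subgroup G).index := orderOf_dvd_of_pow_eq_one h2
    have h5 : orderOf z ∣ p ^ k := orderOf_dvd_of_pow_eq_one h3
    have h6 : Nat.Coprime (p ^ k) (P : Subgroup G).index :=
      Nat.Coprime.pow_left _ ((Nat.Prime.coprime_iff_not_dvd hp).mpr P.not_dvd_index)
    have h7 : orderOf z = 1 := Nat.Coprime.eq_one_of_dvd
      (Nat.Coprime.coprime_dvd_left h5 h6) h4
    exact orderOf_eq_one_iff.mp h7

/-- Finding an invariant Sylow subgroup which is not centralized. -/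
theorem exists_invariant_sylow (M : Subgroup G) [hM : M.Normal] (S : Subgroup G) (hSM : S ≤ M)
    (hScen : S ≤ Subgroup.center G) (hSidx : ¬ p ∣ S.relIndex M) {x : G} {k : ℕ}
    (hx : x ^ (p ^ k) = 1) (hne : ∃ m ∈ M, m * x ≠ x * m) :
    ∃ r : ℕ, r.Prime ∧ r ≠ p ∧ ∃ Q : Subgroup G, IsPGroup r Q ∧ (∀ a ∈ Q, x * a * x⁻¹ ∈ Q) ∧
      ∃ a ∈ Q, a * x ≠ x * a := by
  classical
  have hp : p.Prime := Fact.out
  set C : Subgroup M := (Subgroup.centralizer ({x} : Set G)).subgroupOf M with hC
  have hmemC : ∀ m : M, m ∈ C ↔ x * (m : G) = m * x := by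
    intro m
    rw [hC, Subgroup.mem_subgroupOf, Subgroup.mem_centralizer_singleton_iff]
    exact eq_comm
  have hCne : C ≠ ⊤ := by
    intro h
    obtain ⟨m, hm, hmx⟩ := hne
    have : (⟨m, hm⟩ : M) ∈ C := by rw [h]; trivial
    exact hmx ((hmemC _).mp this).symm
  have hCidx : C.index ≠ 1 := fun h => hCne (Subgroup.index_eq_one.mp h)
  obtain ⟨r, hr, hrC⟩ := Nat.exists_prime_and_dvd hCidx
  have hS'C : S.subgroupOf M ≤ C := by
    intro s hs
    have hs' : (s : G) ∈ S := Subgroup.mem_subgroupOf.mp hs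
    rw [hmemC]
    exact (Subgroup.mem_center_iff.mp (hScen hs') x)
  have hCS : C.index ∣ S.relIndex M := Subgroup.index_dvd_of_le hS'C
  have hrp : r ≠ p := by
    rintro rfl
    exact hSidx (hrC.trans hCS)
  haveI : Fact r.Prime := ⟨hr⟩
  letI : Fintype (Sylow r M) := Fintype.ofFinite _
  have hcard : ¬ p ∣ Fintype.card (Sylow r M) := by
    intro hdvd
    rw [← Nat.card_eq_fintype_card] at hdvd
    obtain ⟨Q₀⟩ : Nonempty (Sylow r M) := inferInstance
    rw [Q₀.card_eq_index_normalizer] at hdvd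
    have hle : S.subgroupOf M ≤ Subgroup.normalizer ((Q₀ : Subgroup M) : Set M) := by
      intro s hs
      have hs' : (s : G) ∈ S := Subgroup.mem_subgroupOf.mp hs
      rw [Subgroup.mem_normalizer_iff]
      intro h
      have e : s * h * s⁻¹ = h := by
        apply Subtype.ext
        change (s : G) * h * (s : G)⁻¹ = h
        rw [(Subgroup.mem_center_iff.mp (hScen hs') h).symm]
        group
      rw [e]
    exact hSidx (hdvd.trans (Subgroup.index_dvd_of_le hle))
  let αM : MulAut M := MulAut.conjNormal x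
  let σ : Equiv.Perm (Sylow r M) := MulAction.toPerm αM
  have hσ : σ ^ p ^ k = 1 := by
    have h1 : αM ^ p ^ k = 1 := by
      rw [← map_pow, hx, map_one]
    have h2 : σ ^ p ^ k = MulAction.toPermHom (MulAut M) (Sylow r M) (αM ^ p ^ k) := by
      rw [map_pow]
      rfl
    rw [h2, h1, map_one]
  obtain ⟨Q, hQ⟩ := Equiv.Perm.exists_fixed_point_of_prime hcard hσ
  have hQ' : αM • Q = Q := hQ
  refine ⟨r, hr, hrp, (Q : Subgroup M).map M.subtype, Q.isPGroup'.map _, ?_, ?_⟩
  · rintro _ ⟨b, hb, rfl⟩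
    have h1 : αM b ∈ ((αM • Q : Sylow r M) : Subgroup M) := by
      change αM b ∈ αM • (Q : Subgroup M)
      exact Subgroup.smul_mem_pointwise_smul b αM _ hb
    rw [hQ'] at h1
    exact ⟨αM b, h1, rfl⟩
  · by_contra hcon
    push Not at hcon
    have hle : (Q : Subgroup M) ≤ C := by
      intro b hb
      rw [hmemC]
      exact (hcon b ⟨b, hb, rfl⟩).symm
    have := hrC.trans (Subgroup.index_dvd_of_le hle)
    exact Q.not_dvd_index this

theorem false_of_index {τ : G → ℂ} (hτ : IsCharacter G τ)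
    (hfaith : ∀ g, τ g = τ 1 → g = 1) (hn : charDegree τ + 1 < p)
    (hmin : ∀ L : Subgroup G, L ≠ ⊤ → PClosed p L) (P : Sylow p G)
    (hnn : ¬ (P : Subgroup G).Normal) (M : Subgroup G) (hM : M.Normal) (hidx : M.index = p) :
    False := by
  classical
  have hp : p.Prime := Fact.out
  have hab : ∀ S : Subgroup G, IsPGroup p S → ∀ a ∈ S, ∀ b ∈ S, a * b = b * a :=
    fun S hS => pgroup_comm hτ hfaith (by omega) S hS
  have hMtop : M ≠ ⊤ := by
    rintro rfl
    rw [Subgroup.index_top] at hidx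
    exact hp.one_lt.ne hidx
  -- all Sylow subgroups meet `M` in the same subgroup
  have hconjcard : ∀ Q : Sylow p G, Nat.card ((Q : Subgroup G) ⊓ M : Subgroup G) =
      Nat.card ((P : Subgroup G) ⊓ M : Subgroup G) := by
    intro Q
    obtain ⟨g, rfl⟩ := MulAction.exists_smul_eq G P Q
    let e : ((P : Subgroup G) ⊓ M : Subgroup G) ≃ (((g • P : Sylow p G) : Subgroup G) ⊓ M : Subgroup G) :=
      { toFun := fun y => ⟨g * y * g⁻¹, Subgroup.mem_inf.mpr ⟨mem_smul_sylow.mpr (by
            have e : g⁻¹ * (g * (y : G) * g⁻¹) * g = y := by group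
            rw [e]
            exact (Subgroup.mem_inf.mp y.2).1), hM.conj_mem _ (Subgroup.mem_inf.mp y.2).2 g⟩⟩
        invFun := fun y => ⟨g⁻¹ * y * g, Subgroup.mem_inf.mpr ⟨mem_smul_sylow.mp (Subgroup.mem_inf.mp y.2).1,
            hM.conj_mem' _ (Subgroup.mem_inf.mp y.2).2 g⟩⟩
        left_inv := fun y => by
          apply Subtype.ext
          change g⁻¹ * (g * (y : G) * g⁻¹) * g = y
          group
        right_inv := fun y => by
          apply Subtype.ext
          change g * (g⁻¹ * (y : G) * g) * g⁻¹ = y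
          group }
    exact (Nat.card_congr e).symm
  have hall : ∀ Q : Sylow p G, (Q : Subgroup G) ⊓ M = (P : Subgroup G) ⊓ M := by
    intro Q
    have hpP : IsPGroup p ((P : Subgroup G) ⊓ M : Subgroup G) := P.isPGroup'.to_le inf_le_left
    have hpQ : IsPGroup p ((Q : Subgroup G) ⊓ M : Subgroup G) := Q.isPGroup'.to_le inf_le_left
    have hsup := hmin M hMtop _ _ hpP hpQ inf_le_right inf_le_right
    obtain ⟨R, hR⟩ := hsup.exists_le_sylow
    have h1 : (P : Subgroup G) ⊓ M ≤ (R : Subgroup G) ⊓ M :=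
      le_inf (le_sup_left.trans hR) inf_le_right
    have h2 : (Q : Subgroup G) ⊓ M ≤ (R : Subgroup G) ⊓ M :=
      le_inf (le_sup_right.trans hR) inf_le_right
    have e1 : (P : Subgroup G) ⊓ M = (R : Subgroup G) ⊓ M :=
      Subgroup.eq_of_le_of_card_ge h1 (le_of_eq (hconjcard R))
    have e2 : (Q : Subgroup G) ⊓ M = (R : Subgroup G) ⊓ M :=
      Subgroup.eq_of_le_of_card_ge h2 (le_of_eq ((hconjcard R).trans (hconjcard Q).symm))
    rw [e1, e2]
  set S : Subgroup G := (P : Subgroup G) ⊓ M with hS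
  -- `P` is not the only Sylow subgroup
  obtain ⟨P₁, hP₁⟩ : ∃ P₁ : Sylow p G, P ≠ P₁ := by
    by_contra hcon
    push Not at hcon
    apply hnn
    refine ⟨fun n hn g => ?_⟩
    have h1 : (g • P : Sylow p G) = P := (hcon _).symm
    have h2 : g * n * g⁻¹ ∈ (g • P : Sylow p G) := by
      refine mem_smul_sylow.mpr ?_
      have e : g⁻¹ * (g * n * g⁻¹) * g = n := by group
      rw [e]
      exact hn
    rw [h1] at h2
    exact h2
  have hScen : S ≤ Subgroup.center G := by
    intro z hz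
    have hz1 : z ∈ P := (Subgroup.mem_inf.mp hz).1
    have hz2 : z ∈ ((P₁ : Subgroup G) ⊓ M : Subgroup G) := by
      rw [hall P₁]; exact hz
    exact central_of_mem_two hmin hab hP₁ hz1 (Subgroup.mem_inf.mp hz2).1
  -- an element of `P` outside `M`
  obtain ⟨x, hxP, hxM⟩ : ∃ x ∈ P, x ∉ M := by
    by_contra hcon
    push Not at hcon
    exact hMtop (no_normal_above hmin P hnn M hM (fun y hy => hcon y hy))
  have hPM : ¬ (P : Subgroup G) ≤ M := fun h => hxM (h hxP)
  have hxpM : x ^ p ∈ M := by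
    rw [← hidx]; exact M.pow_index_mem x
  have hxpc : x ^ p ∈ Subgroup.center G :=
    hScen (Subgroup.mem_inf.mpr ⟨Subgroup.pow_mem _ hxP p, hxpM⟩)
  -- index computation
  have hrelP : M.relIndex (P : Subgroup G) = p := by
    have h1 : M.relIndex (P : Subgroup G) ∣ M.index := Subgroup.relIndex_dvd_index_of_normal M _
    rw [hidx] at h1
    rcases (Nat.dvd_prime hp).mp h1 with h2 | h2
    · exact absurd (Subgroup.relIndex_eq_one.mp h2) hPM
    · exact h2
  have hSidx : ¬ p ∣ S.relIndex M := by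
    have h1 : S.relIndex (P : Subgroup G) * (P : Subgroup G).index = S.index :=
      Subgroup.relIndex_mul_index inf_le_left
    have h2 : S.relIndex M * M.index = S.index :=
      Subgroup.relIndex_mul_index inf_le_right
    have h3 : S.relIndex (P : Subgroup G) = p := by
      rw [hS, inf_comm, Subgroup.inf_relIndex_right, hrelP]
    rw [h3] at h1
    rw [hidx, ← h1, mul_comm] at h2
    have h4 : S.relIndex M = (P : Subgroup G).index :=
      Nat.eq_of_mul_eq_mul_left hp.pos h2
    rw [h4]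
    exact P.not_dvd_index
  -- `x` does not centralize `M`
  have hxne : ∃ m ∈ M, m * x ≠ x * m := by
    by_contra hcon
    push Not at hcon
    -- then `x` is central
    have hsup : M ⊔ Subgroup.zpowers x = ⊤ := by
      have hlt : M ≤ M ⊔ Subgroup.zpowers x := le_sup_left
      have h1 := Subgroup.relIndex_mul_index hlt
      rw [hidx] at h1
      have h2 : (M ⊔ Subgroup.zpowers x).index ∣ p := ⟨_, by rw [← h1, mul_comm]⟩
      rcases (Nat.dvd_prime hp).mp h2 with h3 | h3
      · exact Subgroup.index_eq_one.mp h3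
      · exfalso
        rw [h3] at h1
        have h4 : M.relIndex (M ⊔ Subgroup.zpowers x) = 1 :=
          Nat.eq_of_mul_eq_mul_right hp.pos (by rw [h1, one_mul])
        have h5 := Subgroup.relIndex_eq_one.mp h4
        exact hxM (h5 (Subgroup.mem_sup_right (Subgroup.mem_zpowers x)))
    have hxc : x ∈ Subgroup.center G := by
      have htop : Subgroup.centralizer ({x} : Set G) = ⊤ := by
        rw [eq_top_iff, ← hsup, sup_le_iff]
        constructor
        · intro m hm
          rw [Subgroup.mem_centralizer_singleton_iff]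
          exact hcon m hm
        · rw [Subgroup.zpowers_le, Subgroup.mem_centralizer_singleton_iff]
      rw [Subgroup.mem_center_iff]
      intro g
      have : g ∈ Subgroup.centralizer ({x} : Set G) := by rw [htop]; trivial
      rwa [Subgroup.mem_centralizer_singleton_iff] at this
    -- hence `P` is central
    apply hnn
    have hPcen : (P : Subgroup G) ≤ Subgroup.center G := by
      intro y hy
      have hytop : y ∈ M ⊔ Subgroup.zpowers x := by rw [hsup]; trivial
      haveI := hM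
      obtain ⟨m, hm, w, hw, rfl⟩ := Subgroup.mem_sup_of_normal_left.mp hytop
      have hwP : w ∈ (P : Subgroup G) := (Subgroup.zpowers_le.mpr hxP) hw
      have hmP : m ∈ (P : Subgroup G) := (Subgroup.mul_mem_cancel_right _ hwP).mp hy
      have hmc : m ∈ Subgroup.center G := hScen (Subgroup.mem_inf.mpr ⟨hmP, hm⟩)
      have hwc : w ∈ Subgroup.center G := (Subgroup.zpowers_le.mpr hxc) hw
      exact Subgroup.mul_mem _ hmc hwc
    refine ⟨fun n hn g => ?_⟩
    have e : g * n * g⁻¹ = n := by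
      rw [(Subgroup.mem_center_iff.mp (hPcen hn) g)]
      group
    rw [e]
    exact hn
  obtain ⟨k, hk⟩ := P.isPGroup' ⟨x, hxP⟩
  have hk' : x ^ (p ^ k) = 1 := congrArg Subtype.val hk
  obtain ⟨r, hr, hrp, Q, hQ, hQinv, hQne⟩ :=
    exists_invariant_sylow M S inf_le_right hScen hSidx hk' hxne
  haveI : Fact r.Prime := ⟨hr⟩
  have := action_bound hτ hfaith hrp.symm Q hQ hQinv
    (fun a _ => (Subgroup.mem_center_iff.mp hxpc a).symm) hQne
  omega

/-- **The core theorem.** -/
theorem core {τ : G → ℂ} (hτ : IsCharacter G τ)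
    (hfaith : ∀ g, τ g = τ 1 → g = 1) (hn : charDegree τ + 1 < p)
    (hmin : ∀ L : Subgroup G, L ≠ ⊤ → PClosed p L) (P : Sylow p G)
    (hsize : (charDegree τ + 1) ^ 2 ≤ Nat.card P) : (P : Subgroup G).Normal := by
  by_contra hnn
  have hab : ∀ S : Subgroup G, IsPGroup p S → ∀ a ∈ S, ∀ b ∈ S, a * b = b * a :=
    fun S hS => pgroup_comm hτ hfaith (by omega) S hS
  rcases center_trivial_or_index P (hab _ P.isPGroup') with h | ⟨M, hM, hidx⟩
  · exact false_of_center_trivial hτ hfaith hn hmin P hsize hnn h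
  · exact false_of_index hτ hfaith hn hmin P hnn M hM hidx

end Core

end Cfsg.Agent.Lib.CharDeep.BlichB
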