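import Cfsg.Agent.Lib.Char.Extend
import Cfsg.Agent.Lib.Char.Clifford
import Cfsg.Agent.Lib.Char.IndRep
import Cfsg.Agent.Lib.CharDeep.Det
import Cfsg.Agent.Lib.CharX.Fixed

/-!
# Extending invariant characters: Dade's step

* `exists_ext_of_comm`: homomorphisms to `ℂˣ` from a subgroup of a finite abelian group extend.
* `finrank_mem_exponents_of_central`: if `E N = G`, `E ∩ N` is central in `E`, and `μ` is a
  homomorphism `E → ℂˣ`, then the dimension of the `μ`-eigenspace of `E ∩ N` on `V` is an exponent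
  of the projective extension attached to `X`.
-/

set_option autoImplicit false
set_option linter.unusedSectionVars false

namespace Cfsg.Agent.Lib.CharDeep.DadeExt

open Cfsg Module
open Cfsg.Agent.Lib.Char.Basic Cfsg.Agent.Lib.Char.Ortho Cfsg.Agent.Lib.Char.Complete
open Cfsg.Agent.Lib.Char.Induced Cfsg.Agent.Lib.Char.IndRep Cfsg.Agent.Lib.Char.Linear
open Cfsg.Agent.Lib.Char.Clifford Cfsg.Agent.Lib.Char.Conj Cfsg.Agent.Lib.Char.ProjExt
open scoped ComplexConjugate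

universe u v

/-- Homomorphisms to `ℂˣ` from a subgroup of a finite abelian group extend. -/
theorem exists_ext_of_comm {A : Type u} [Group A] [Finite A] (hcomm : ∀ a b : A, a * b = b * a)
    (B : Subgroup A) (lam : B →* ℂˣ) : ∃ l : A →* ℂˣ, ∀ x : B, l x = lam x := by
  classical
  let _ : Fintype A := Fintype.ofFinite A
  let _ : Fintype B := Fintype.ofFinite B
  have hf := isIrrCharacter_of_hom lam
  have hne : indFun B (fun b => (lam b : ℂ)) ≠ 0 := by
    intro h0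
    have h1 := indFun_one B (fun b => (lam b : ℂ))
    rw [h0] at h1
    have h2 := index_ne_zero' B
    simp only [Pi.zero_apply, map_one, Units.val_one, mul_one] at h1
    exact h2 h1.symm
  obtain ⟨θ, hθ, hθne⟩ := exists_irr_constituent (isClassFunction_indFun B _) hne
  rw [classInner_indFun_left B _ _ (isClassFunction_of_isIrrCharacter hθ)] at hθne
  have h1 := isIrr_deg_one_of_comm hcomm hθ
  obtain ⟨l, rfl⟩ := exists_hom_of_deg_one (isCharacter_of_isIrrCharacter hθ) h1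
  refine ⟨l, fun x => ?_⟩
  have h2 := isIrrCharacter_of_hom (l.comp B.subtype)
  by_cases h4 : (fun g : B => (lam g : ℂ)) = fun g : B => ((l.comp B.subtype) g : ℂ)
  · exact Units.ext (congrFun h4 x).symm
  · exact absurd (classInner_eq_zero_of_isIrr_of_ne hf h2 h4) hθne

section Exponent

variable {G : Type u} [Group G] {N : Subgroup G} (hN : N.Normal)
variable {V : Type v} [AddCommGroup V] [Module ℂ V] [FiniteDimensional ℂ V]
variable (X : Representation ℂ N V)

/-- The eigenspace of `E ⊓ N` for the restriction of `μ`. -/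
def eigen (E : Subgroup G) (μ : E →* ℂˣ) : Submodule ℂ V where
  carrier := {v | ∀ d : ↥(E ⊓ N), X ⟨d, d.2.2⟩ v = ((μ ⟨d, d.2.1⟩ : ℂˣ) : ℂ) • v}
  add_mem' := by
    intro a b ha hb d
    rw [map_add, ha d, hb d, smul_add]
  zero_mem' := by
    intro d
    simp
  smul_mem' := by
    intro c a ha d
    rw [map_smul, ha d, smul_comm]

theorem mem_eigen {E : Subgroup G} {μ : E →* ℂˣ} {v : V} :
    v ∈ eigen X E μ ↔ ∀ d : ↥(E ⊓ N), X ⟨d, d.2.2⟩ v = ((μ ⟨d, d.2.1⟩ : ℂˣ) : ℂ) • v := Iff.rfl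

/-- The dimension of an eigenspace is an exponent. -/
theorem finrank_mem_exponents_of_central {E : Subgroup G} (htop : E ⊔ N = ⊤)
    (hcen : ∀ d ∈ E ⊓ N, ∀ e ∈ E, e * d * e⁻¹ = d) (μ : E →* ℂˣ) :
    (finrank ℂ (eigen X E μ) : ℤ) ∈ exponents hN X := by
  classical
  set W := eigen X E μ with hW
  set a : ℕ := finrank ℂ W with ha
  let S : Subgroup (Gam hN X) := E.comap (pr hN X)
  have hmemS : ∀ γ : S, pr hN X γ.1 ∈ E := fun γ => γ.2
  have hcomm : ∀ (γ : S) (d : ↥(E ⊓ N)),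
      opOf hN X γ.1 * X ⟨d, d.2.2⟩ = X ⟨d, d.2.2⟩ * opOf hN X γ.1 := by
    intro γ d
    rw [opOf_mul_X]
    congr 2
    apply Subtype.ext
    rw [coe_conjEquiv]
    exact hcen d d.2 _ (hmemS γ)
  have hmaps : ∀ (γ : S) (v : V), v ∈ W → opOf hN X γ.1 v ∈ W := by
    intro γ v hv d
    have h1 := congrArg (fun f : Module.End ℂ V => f v) (hcomm γ d)
    simp only [Module.End.mul_apply] at h1
    rw [← h1, hv d, map_smul]
  let π : S →* Module.End ℂ W :=
    { toFun := fun γ => (opOf hN X γ.1).restrict (hmaps γ)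
      map_one' := by
        ext v
        simp
      map_mul' := by
        intro x y
        ext v
        simp }
  have hπ : ∀ (γ : S) (v : W), ((π γ v : W) : V) = opOf hN X γ.1 v := fun _ _ => rfl
  let prE : S →* E := ((pr hN X).comp S.subtype).codRestrict E hmemS
  have hprE : ∀ γ : S, ((prE γ : E) : G) = pr hN X γ.1 := fun _ => rfl
  let T₀ : S →* ℂˣ := (((LinearMap.det : Module.End ℂ W →* ℂ).comp π).toHomUnits) *
    ((μ.comp prE) ^ a)⁻¹
  have hT₀ : ∀ γ : S, ((T₀ γ : ℂˣ) : ℂ) = LinearMap.det (π γ) * (((μ (prE γ)) ^ a)⁻¹ : ℂˣ) := by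
    intro γ
    simp [T₀]
  -- scalars
  have hscalS : ∀ c : ℂˣ, scal hN X c ∈ S := fun c => by
    change pr hN X (scal hN X c) ∈ E
    simp [E.one_mem]
  have hT₀scal : ∀ c : ℂˣ, T₀ ⟨scal hN X c, hscalS c⟩ = c ^ a := by
    intro c
    apply Units.ext
    rw [hT₀]
    have h1 : π ⟨scal hN X c, hscalS c⟩ = (c : ℂ) • (1 : Module.End ℂ W) := by
      ext v
      simp [hπ]
    have h2 : prE ⟨scal hN X c, hscalS c⟩ = 1 := by
      apply Subtype.ext
      simp [hprE]
    rw [h1, h2, LinearMap.det_smul]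
    simp [ha]
  -- elements of the form `iota d`
  have hiotaS : ∀ d : ↥(E ⊓ N), iota hN X ⟨d, d.2.2⟩ ∈ S := fun d => by
    change pr hN X (iota hN X ⟨d, d.2.2⟩) ∈ E
    simpa using d.2.1
  have hT₀iota : ∀ d : ↥(E ⊓ N), T₀ ⟨iota hN X ⟨d, d.2.2⟩, hiotaS d⟩ = 1 := by
    intro d
    apply Units.ext
    rw [hT₀]
    have h1 : π ⟨iota hN X ⟨d, d.2.2⟩, hiotaS d⟩ = ((μ ⟨d, d.2.1⟩ : ℂˣ) : ℂ) • (1 : Module.End ℂ W) := by
      ext v
      simp only [hπ, opOf_iota]
      exact v.2 d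
    have h2 : prE ⟨iota hN X ⟨d, d.2.2⟩, hiotaS d⟩ = ⟨d, d.2.1⟩ := by
      apply Subtype.ext
      simp [hprE]
    rw [h1, h2, LinearMap.det_smul]
    simp [ha]
  -- descend to the quotient
  have hnorm : (iota hN X).range.Normal := iota_range_normal
  let q : Gam hN X →* Gam hN X ⧸ (iota hN X).range := QuotientGroup.mk' _
  let q' : S →* Gam hN X ⧸ (iota hN X).range := q.comp S.subtype
  have hq' : Function.Surjective q' := by
    intro y
    obtain ⟨γ, rfl⟩ := QuotientGroup.mk'_surjective _ y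
    have h1 : pr hN X γ ∈ ((E ⊔ N : Subgroup G) : Set G) := by
      rw [htop]
      exact Subgroup.mem_top _
    haveI := hN
    rw [Subgroup.mul_normal] at h1
    obtain ⟨e, he, n, hn, hen⟩ := Set.mem_mul.mp h1
    refine ⟨⟨γ * (iota hN X ⟨n, hn⟩)⁻¹, ?_⟩, ?_⟩
    · change pr hN X (γ * (iota hN X ⟨n, hn⟩)⁻¹) ∈ E
      simp only [map_mul, map_inv, pr_iota]
      rw [← hen]
      simpa using he
    · apply QuotientGroup.eq.mpr
      refine ⟨⟨n, hn⟩, ?_⟩
      simp
  have hker : q'.ker ≤ T₀.ker := by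
    intro γ hγ
    have h1 : (γ : Gam hN X) ∈ (iota hN X).range := by
      have : q γ.1 = 1 := hγ
      exact (QuotientGroup.eq_one_iff _).mp this
    obtain ⟨n, hn⟩ := h1
    have h2 : (n : G) ∈ E := by
      have := hmemS γ
      rw [← hn] at this
      simpa using this
    have h3 : γ = ⟨iota hN X ⟨(⟨n, h2, n.2⟩ : ↥(E ⊓ N)), n.2⟩, hiotaS ⟨n, h2, n.2⟩⟩ := by
      apply Subtype.ext
      exact hn.symm
    rw [MonoidHom.mem_ker, h3]
    exact hT₀iota ⟨n, h2, n.2⟩
  let T₁ : (Gam hN X ⧸ (iota hN X).range) →* ℂˣ := (q'.liftOfSurjective hq') ⟨T₀, hker⟩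
  have hT₁ : ∀ γ : S, T₁ (q γ.1) = T₀ γ := fun γ =>
    MonoidHom.liftOfRightInverse_comp_apply _ _ _ _ _
  refine ⟨T₁.comp q, ?_, ?_⟩
  · intro c
    simp only [MonoidHom.comp_apply]
    rw [hT₁ ⟨scal hN X c, hscalS c⟩, hT₀scal]
    simp
  · intro n
    simp only [MonoidHom.comp_apply]
    have : q (iota hN X n) = 1 := (QuotientGroup.eq_one_iff _).mpr ⟨n, rfl⟩
    rw [this, map_one]

/-- The multiplicity of a linear character is the dimension of its eigenspace. -/
theorem classInner_eq_finrank_eigen {E : Subgroup G} [Finite E] [Fintype ↥(E ⊓ N)] (μ : E →* ℂˣ) :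
    classInner (fun x : ↥(E ⊓ N) => X.character ⟨x, x.2.2⟩) (fun x => ((μ ⟨x, x.2.1⟩ : ℂˣ) : ℂ)) =
      (finrank ℂ (eigen X E μ) : ℂ) := by
  classical
  let ν : ↥(E ⊓ N) →* ℂˣ := μ.comp (Subgroup.inclusion inf_le_left)
  have hν : ∀ x : ↥(E ⊓ N), ν x = μ ⟨x, x.2.1⟩ := fun _ => rfl
  let Y : Representation ℂ ↥(E ⊓ N) V := X.comp (Subgroup.inclusion inf_le_right)
  have hY : ∀ x : ↥(E ⊓ N), Y x = X ⟨x, x.2.2⟩ := fun _ => rfl
  let Z := Cfsg.Agent.Lib.CharDeep.Det.twist ν⁻¹ Y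
  have hZ : ∀ x : ↥(E ⊓ N), Z x = (((ν x)⁻¹ : ℂˣ) : ℂ) • X ⟨x, x.2.2⟩ := fun _ => rfl
  have hinv : Representation.invariants Z = eigen X E μ := by
    ext v
    rw [Representation.mem_invariants, mem_eigen]
    constructor
    · intro h d
      have h1 := h d
      rw [hZ] at h1
      have h2 : ((ν d : ℂˣ) : ℂ) • ((((ν d)⁻¹ : ℂˣ) : ℂ) • X ⟨d, d.2.2⟩ v) = ((ν d : ℂˣ) : ℂ) • v := by
        simpa using congrArg (fun w => ((ν d : ℂˣ) : ℂ) • w) h1
      rw [smul_smul] at h2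
      simpa [hν] using h2
    · intro h d
      rw [hZ]
      simp only [LinearMap.smul_apply]
      rw [h d, smul_smul, ← hν]
      simp
  rw [← hinv, ← Cfsg.Agent.Lib.CharX.Fixed.classInner_one_eq_finrank]
  unfold classInner
  congr 1
  refine Finset.sum_congr rfl fun x _ => ?_
  have h1 : Z.character x = (((ν x)⁻¹ : ℂˣ) : ℂ) * X.character ⟨x, x.2.2⟩ := by
    simp only [Representation.character, hZ, map_smul, smul_eq_mul]
  rw [h1]
  have h2 : conj ((μ ⟨x, x.2.1⟩ : ℂˣ) : ℂ) = (((ν x)⁻¹ : ℂˣ) : ℂ) := by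
    have h3 := char_inv_eq_conj (isCharacter_of_isIrrCharacter (isIrrCharacter_of_hom ν)) x
    simp only [map_inv] at h3
    rw [← hν]
    exact h3.symm
  rw [h2]
  simp [mul_comm]

end Exponent

end Cfsg.Agent.Lib.CharDeep.DadeExt
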