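import Mathlib

/-!
# A double cover of the alternating group

A Clifford algebra over `ZMod 7` realized by explicit signed permutation matrices on `Fin n → ZMod 2`.
-/

set_option autoImplicit false

namespace Cfsg.Agent.Lib.CharDeep.SpinCover

open scoped commutatorElement

/-- The coefficient ring. -/
abbrev Fq := ZMod 7

/-- The index set. -/
abbrev Wv (n : ℕ) := Fin n → ZMod 2

/-- The matrix ring. -/
abbrev Mt (n : ℕ) := Matrix (Wv n) (Wv n) Fq

/-- The sign. -/
def sg (u : ZMod 2) : Fq := if u = 0 then 1 else -1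

theorem sg_add (u v : ZMod 2) : sg (u + v) = sg u * sg v := by
  revert u v
  decide

theorem sg_zero : sg 0 = 1 := by decide

theorem sg_one : sg 1 = -1 := by decide

theorem sg_mul_self (u : ZMod 2) : sg u * sg u = 1 := by
  revert u
  decide

theorem sg_ne_zero (u : ZMod 2) : sg u ≠ 0 := by
  revert u
  decide

theorem two_add_self (u : ZMod 2) : u + u = 0 := by
  revert u
  decide

variable {n : ℕ}

theorem wv_add_self (a : Wv n) : a + a = 0 := by
  funext k
  exact two_add_self (a k)

/-- The bilinear form of the cocycle. -/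
def bt (a b : Wv n) : ZMod 2 := ∑ k, ∑ l, if l < k then a k * b l else 0

theorem bt_add_left (a a' b : Wv n) : bt (a + a') b = bt a b + bt a' b := by
  unfold bt
  rw [← Finset.sum_add_distrib]
  refine Finset.sum_congr rfl fun k _ => ?_
  rw [← Finset.sum_add_distrib]
  refine Finset.sum_congr rfl fun l _ => ?_
  split_ifs
  · simp [add_mul]
  · simp

theorem bt_add_right (a b b' : Wv n) : bt a (b + b') = bt a b + bt a b' := by
  unfold bt
  rw [← Finset.sum_add_distrib]
  refine Finset.sum_congr rfl fun k _ => ?_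
  rw [← Finset.sum_add_distrib]
  refine Finset.sum_congr rfl fun l _ => ?_
  split_ifs
  · simp [mul_add]
  · simp

theorem bt_zero_left (b : Wv n) : bt 0 b = 0 := by
  simp [bt]

theorem bt_zero_right (a : Wv n) : bt a 0 = 0 := by
  simp [bt]

/-- The parity. -/
def par (a : Wv n) : ZMod 2 := ∑ k, a k

theorem par_add (a b : Wv n) : par (a + b) = par a + par b := by
  simp [par, Finset.sum_add_distrib]

theorem par_zero : par (0 : Wv n) = 0 := by
  simp [par]

/-- The basis elements. -/
def bE (a : Wv n) : Mt n := fun x y => if y = x + a then sg (bt a x) else 0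

theorem bE_apply (a x y : Wv n) : bE a x y = if y = x + a then sg (bt a x) else 0 := rfl

theorem bE_mul (a b : Wv n) : bE a * bE b = sg (bt b a) • bE (a + b) := by
  ext x y
  rw [Matrix.mul_apply, Finset.sum_eq_single (x + a)]
  · rw [bE_apply, if_pos rfl, bE_apply, Matrix.smul_apply, bE_apply, smul_eq_mul]
    have h1 : (y = x + a + b) ↔ (y = x + (a + b)) := by rw [add_assoc]
    by_cases h : y = x + (a + b)
    · rw [if_pos (h1.mpr h), if_pos h, bt_add_right, bt_add_left, sg_add, sg_add]
      ring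
    · rw [if_neg (fun h2 => h (h1.mp h2)), if_neg h]
      simp
  · intro z _ hz
    rw [bE_apply, if_neg hz, zero_mul]
  · intro h
    exact absurd (Finset.mem_univ _) h

theorem bE_zero : bE (0 : Wv n) = 1 := by
  ext x y
  rw [bE_apply, Matrix.one_apply, bt_zero_left, sg_zero, add_zero]
  by_cases h : y = x
  · rw [if_pos h, if_pos h.symm]
  · rw [if_neg h, if_neg (fun h2 => h h2.symm)]

theorem bE_transpose (a : Wv n) : (bE a).transpose = sg (bt a a) • bE a := by
  ext x y
  rw [Matrix.transpose_apply, bE_apply, Matrix.smul_apply, bE_apply, smul_eq_mul]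
  by_cases h : y = x + a
  · have h1 : x = y + a := by
      rw [h, add_assoc, wv_add_self, add_zero]
    rw [if_pos h1, if_pos h, h, bt_add_right, sg_add]
    ring
  · have h1 : ¬ x = y + a := by
      intro h2
      apply h
      rw [h2, add_assoc, wv_add_self, add_zero]
    rw [if_neg h1, if_neg h, mul_zero]

/-- The generator. -/
def dl (k : Fin n) : Wv n := Pi.single k 1

theorem bt_dl_dl (i j : Fin n) : bt (dl i) (dl j) = if j < i then 1 else 0 := by
  unfold bt dl
  rw [Finset.sum_eq_single i]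
  · rw [Finset.sum_eq_single j]
    · simp
    · intro l _ hl
      simp [Pi.single_apply, hl]
    · intro h
      exact absurd (Finset.mem_univ _) h
  · intro k _ hk
    apply Finset.sum_eq_zero
    intro l _
    simp [Pi.single_apply, hk]
  · intro h
    exact absurd (Finset.mem_univ _) h

/-- The Clifford generators. -/
def ee (k : Fin n) : Mt n := bE (dl k)

theorem ee_sq (k : Fin n) : ee k * ee k = 1 := by
  unfold ee
  rw [bE_mul, wv_add_self, bE_zero, bt_dl_dl, if_neg (lt_irrefl k), sg_zero, one_smul]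

theorem ee_anti {i j : Fin n} (h : i ≠ j) : ee i * ee j = -(ee j * ee i) := by
  unfold ee
  rw [bE_mul, bE_mul, bt_dl_dl, bt_dl_dl, add_comm (dl j) (dl i)]
  rcases lt_or_gt_of_ne h with h1 | h1
  · rw [if_pos h1, if_neg (lt_asymm h1), sg_zero, sg_one]
    simp
  · rw [if_neg (lt_asymm h1), if_pos h1, sg_zero, sg_one]
    simp

theorem ee_transpose (k : Fin n) : (ee k).transpose = ee k := by
  unfold ee
  rw [bE_transpose, bt_dl_dl, if_neg (lt_irrefl k), sg_zero, one_smul]

/-- The span of the basis elements of given parity sign. -/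
def Ps (n : ℕ) (ε : Fq) : Submodule Fq (Mt n) :=
  Submodule.span Fq {m | ∃ a : Wv n, sg (par a) = ε ∧ m = bE a}

theorem bE_mem (a : Wv n) : bE a ∈ Ps n (sg (par a)) :=
  Submodule.subset_span ⟨a, rfl, rfl⟩

theorem Ps_mul {ε ε' : Fq} {g h : Mt n} (hg : g ∈ Ps n ε) (hh : h ∈ Ps n ε') :
    g * h ∈ Ps n (ε * ε') := by
  induction hg using Submodule.span_induction with
  | mem x hx =>
    obtain ⟨a, ha, rfl⟩ := hx
    induction hh using Submodule.span_induction with
    | mem y hy =>
      obtain ⟨b, hb, rfl⟩ := hy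
      rw [bE_mul]
      apply Submodule.smul_mem
      apply Submodule.subset_span
      exact ⟨a + b, by rw [par_add, sg_add, ha, hb], rfl⟩
    | zero => simp
    | add y z _ _ hy hz =>
      rw [mul_add]
      exact Submodule.add_mem _ hy hz
    | smul c y _ hy =>
      rw [mul_smul_comm]
      exact Submodule.smul_mem _ _ hy
  | zero => simp
  | add y z _ _ hy hz =>
    rw [add_mul]
    exact Submodule.add_mem _ hy hz
  | smul c y _ hy =>
    rw [smul_mul_assoc]
    exact Submodule.smul_mem _ _ hy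

theorem Ps_transpose {ε : Fq} {g : Mt n} (hg : g ∈ Ps n ε) : g.transpose ∈ Ps n ε := by
  induction hg using Submodule.span_induction with
  | mem x hx =>
    obtain ⟨a, ha, rfl⟩ := hx
    rw [bE_transpose]
    apply Submodule.smul_mem
    exact Submodule.subset_span ⟨a, ha, rfl⟩
  | zero => simp
  | add y z _ _ hy hz =>
    rw [Matrix.transpose_add]
    exact Submodule.add_mem _ hy hz
  | smul c y _ hy =>
    rw [Matrix.transpose_smul]
    exact Submodule.smul_mem _ _ hy

theorem one_mem_Ps : (1 : Mt n) ∈ Ps n 1 := by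
  have := bE_mem (0 : Wv n)
  rwa [par_zero, sg_zero, bE_zero] at this

/-- Expansion of an element of the span. -/
theorem eq_sum_of_mem {ε : Fq} {g : Mt n} (hg : g ∈ Ps n ε) :
    ∀ x y : Wv n, g x y = g 0 (x + y) * sg (bt (x + y) x) := by
  induction hg using Submodule.span_induction with
  | mem m hm =>
    obtain ⟨a, -, rfl⟩ := hm
    intro x y
    rw [bE_apply, bE_apply, zero_add, bt_zero_right, sg_zero]
    by_cases h : y = x + a
    · have h1 : x + y = a := by
        rw [h, ← add_assoc, wv_add_self, zero_add]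
      rw [if_pos h, h1, if_pos rfl, one_mul]
    · have h1 : ¬ x + y = a := by
        intro h2
        apply h
        rw [← h2, ← add_assoc, wv_add_self, zero_add]
      rw [if_neg h, if_neg h1, zero_mul]
  | zero => simp
  | add u v _ _ hu hv =>
    intro x y
    rw [Matrix.add_apply, Matrix.add_apply, hu, hv]
    ring
  | smul c u _ hu =>
    intro x y
    rw [Matrix.smul_apply, Matrix.smul_apply, hu, smul_eq_mul, smul_eq_mul]
    ring

theorem entry_eq_zero_of_mem {g : Mt n} (hg : g ∈ Ps n 1) :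
    ∀ a : Wv n, par a ≠ 0 → g 0 a = 0 := by
  induction hg using Submodule.span_induction with
  | mem m hm =>
    obtain ⟨b, hb, rfl⟩ := hm
    intro a ha
    rw [bE_apply, zero_add]
    have : a ≠ b := by
      rintro rfl
      apply ha
      by_contra h
      have h2 : par a = 1 := by
        revert h
        generalize par a = u
        revert u
        decide
      rw [h2, sg_one] at hb
      revert hb
      decide
    rw [if_neg this]
  | zero => simp
  | add u v _ _ hu hv =>
    intro a ha
    rw [Matrix.add_apply, hu a ha, hv a ha, add_zero]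
  | smul c u _ hu =>
    intro a ha
    rw [Matrix.smul_apply, hu a ha, smul_zero]

theorem ee_zero_apply (k : Fin n) (y : Wv n) : ee k 0 y = if y = dl k then 1 else 0 := by
  unfold ee
  rw [bE_apply, bt_zero_right, sg_zero, zero_add]

theorem mul_ee_apply (g : Mt n) (k : Fin n) (x y : Wv n) :
    (g * ee k) x y = g x (y + dl k) * sg (bt (dl k) (y + dl k)) := by
  rw [Matrix.mul_apply, Finset.sum_eq_single (y + dl k)]
  · unfold ee
    rw [bE_apply, if_pos]
    rw [add_assoc, wv_add_self, add_zero]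
  · intro z _ hz
    unfold ee
    rw [bE_apply, if_neg, mul_zero]
    intro h
    apply hz
    rw [h, add_assoc, wv_add_self, add_zero]
  · intro h
    exact absurd (Finset.mem_univ _) h

theorem ee_mul_apply (g : Mt n) (k : Fin n) (y : Wv n) :
    (ee k * g) 0 y = g (dl k) y := by
  rw [Matrix.mul_apply, Finset.sum_eq_single (dl k)]
  · rw [ee_zero_apply, if_pos rfl, one_mul]
  · intro z _ hz
    rw [ee_zero_apply, if_neg hz, zero_mul]
  · intro h
    exact absurd (Finset.mem_univ _) h

/-- The commutation form on generators. -/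
theorem bt_comm_dl (a : Wv n) (k : Fin n) : bt a (dl k) + bt (dl k) a = par a + a k := by
  have h1 : bt a (dl k) = ∑ m, if k < m then a m else 0 := by
    unfold bt dl
    refine Finset.sum_congr rfl fun m _ => ?_
    rw [Finset.sum_eq_single k]
    · simp
    · intro l _ hl
      simp [Pi.single_apply, hl]
    · intro h
      exact absurd (Finset.mem_univ _) h
  have h2 : bt (dl k) a = ∑ m, if m < k then a m else 0 := by
    unfold bt dl
    rw [Finset.sum_eq_single k]
    · simp
    · intro m _ hm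
      apply Finset.sum_eq_zero
      intro l _
      simp [Pi.single_apply, hm]
    · intro h
      exact absurd (Finset.mem_univ _) h
  rw [h1, h2, ← Finset.sum_add_distrib]
  have h3 : par a + a k = ∑ m, (a m + if m = k then a k else 0) := by
    rw [Finset.sum_add_distrib, Finset.sum_ite_eq']
    simp [par]
  rw [h3]
  refine Finset.sum_congr rfl fun m _ => ?_
  rcases lt_trichotomy m k with h | h | h
  · rw [if_neg (lt_asymm h), if_pos h, if_neg h.ne]
    simp
  · subst h
    simp [two_add_self]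
  · rw [if_pos h, if_neg (lt_asymm h), if_neg h.ne']

/-- An even element commuting with the generators is a scalar. -/
theorem scalar_of_commute {g : Mt n} (hg : g ∈ Ps n 1) (hc : ∀ k, g * ee k = ee k * g) :
    ∃ c : Fq, g = c • (1 : Mt n) := by
  have hent : ∀ a : Wv n, a ≠ 0 → g 0 a = 0 := by
    intro a ha
    by_cases hp : par a = 0
    · obtain ⟨k, hk⟩ : ∃ k, a k ≠ 0 := by
        by_contra hall
        push Not at hall
        exact ha (funext hall)
      have hk1 : a k = 1 := by
        revert hk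
        generalize a k = u
        revert u
        decide
      have h1 := congrFun (congrFun (hc k) 0) (a + dl k)
      rw [mul_ee_apply, ee_mul_apply, add_assoc, wv_add_self, add_zero,
        eq_sum_of_mem hg (dl k) (a + dl k)] at h1
      have h2 : dl k + (a + dl k) = a := by
        rw [add_comm a, ← add_assoc, wv_add_self, zero_add]
      rw [h2] at h1
      have h3 := bt_comm_dl a k
      rw [hp, zero_add, hk1] at h3
      -- the signs differ
      have h4 : sg (bt a (dl k)) = - sg (bt (dl k) a) := by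
        have h5 : sg (bt a (dl k) + bt (dl k) a) = -1 := by rw [h3, sg_one]
        rw [sg_add] at h5
        linear_combination (sg (bt (dl k) a)) * h5 - sg (bt a (dl k)) * sg_mul_self (bt (dl k) a)
      rw [h4] at h1
      have h6 : (2 : Fq) * sg (bt (dl k) a) * g 0 a = 0 := by
        linear_combination h1
      have h7 : ∀ u : Fq, u ≠ 0 → ∀ v : Fq, (2 : Fq) * u * v = 0 → v = 0 := by decide
      exact h7 _ (sg_ne_zero _) _ h6
    · exact entry_eq_zero_of_mem hg a hp
  refine ⟨g 0 0, ?_⟩
  ext x y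
  rw [eq_sum_of_mem hg x y, Matrix.smul_apply, Matrix.one_apply, smul_eq_mul]
  by_cases h : x = y
  · subst h
    rw [wv_add_self, if_pos rfl, bt_zero_left, sg_zero]
  · have h1 : x + y ≠ 0 := by
      intro h2
      apply h
      have : x + y + y = y := by rw [h2, zero_add]
      rwa [add_assoc, wv_add_self, add_zero] at this
    rw [hent _ h1, if_neg h]
    simp

/-- `1/√2`. -/
def ss : Fq := 5

/-- The lift of a transposition. -/
def tt (i j : Fin n) : Mt n := ss • (ee i - ee j)

theorem ss_sq : ss * ss * 2 = 1 := by decide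

theorem tt_sq {i j : Fin n} (h : i ≠ j) : tt i j * tt i j = 1 := by
  unfold tt
  rw [smul_mul_smul_comm]
  have h1 : (ee i - ee j) * (ee i - ee j) = (2 : Fq) • (1 : Mt n) := by
    have h2 := ee_anti h
    have h3 : (ee i - ee j) * (ee i - ee j) =
        ee i * ee i - ee i * ee j - ee j * ee i + ee j * ee j := by noncomm_ring
    rw [h3, ee_sq, ee_sq, h2, two_smul]
    abel
  rw [h1, smul_smul, ss_sq, one_smul]

theorem tt_transpose (i j : Fin n) : (tt i j).transpose = tt i j := by
  unfold tt
  rw [Matrix.transpose_smul, Matrix.transpose_sub, ee_transpose, ee_transpose]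

theorem tt_mem (i j : Fin n) : tt i j ∈ Ps n (-1) := by
  unfold tt
  apply Submodule.smul_mem
  have hd : ∀ k : Fin n, par (dl k) = 1 := by
    intro k
    simp [par, dl]
  apply Submodule.sub_mem
  · exact Submodule.subset_span ⟨dl i, by rw [hd, sg_one], rfl⟩
  · exact Submodule.subset_span ⟨dl j, by rw [hd, sg_one], rfl⟩

theorem tt_conj {i j : Fin n} (h : i ≠ j) (k : Fin n) :
    tt i j * ee k = -(ee (Equiv.swap i j k) * tt i j) := by
  unfold tt
  rw [smul_mul_assoc, mul_smul_comm, ← smul_neg]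
  congr 1
  by_cases hi : k = i
  · subst hi
    rw [Equiv.swap_apply_left, sub_mul, mul_sub, ee_sq, ee_sq]
    abel
  by_cases hj : k = j
  · subst hj
    rw [Equiv.swap_apply_right, sub_mul, mul_sub, ee_sq, ee_sq]
    abel
  rw [Equiv.swap_apply_of_ne_of_ne hi hj, sub_mul, mul_sub, ee_anti (Ne.symm hi), ee_anti (Ne.symm hj)]
  abel

/-- The sign of a permutation in the coefficient ring. -/
def sf (f : Equiv.Perm (Fin n)) : Fq := (((Equiv.Perm.sign f : ℤˣ) : ℤ) : Fq)

theorem sf_one : sf (1 : Equiv.Perm (Fin n)) = 1 := by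
  simp [sf]

theorem sf_mul (f g : Equiv.Perm (Fin n)) : sf (f * g) = sf f * sf g := by
  simp [sf]

theorem sf_swap {i j : Fin n} (h : i ≠ j) : sf (Equiv.swap i j) = -1 := by
  simp [sf, Equiv.Perm.sign_swap h]

/-- Lifts of permutations. -/
def IsLift (f : Equiv.Perm (Fin n)) (g : Mt n) : Prop :=
  g.transpose * g = 1 ∧ (∀ k, g * ee k = sf f • (ee (f k) * g)) ∧ g ∈ Ps n (sf f)

theorem isLift_one : IsLift (1 : Equiv.Perm (Fin n)) 1 := by
  refine ⟨by simp, fun k => ?_, ?_⟩
  · simp [sf_one]
  · rw [sf_one]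
    exact one_mem_Ps

theorem isLift_tt {i j : Fin n} (h : i ≠ j) : IsLift (Equiv.swap i j) (tt i j) := by
  refine ⟨by rw [tt_transpose, tt_sq h], fun k => ?_, ?_⟩
  · rw [sf_swap h, tt_conj h]
    simp
  · rw [sf_swap h]
    exact tt_mem i j

theorem IsLift.mul {f f' : Equiv.Perm (Fin n)} {g g' : Mt n} (h : IsLift f g) (h' : IsLift f' g') :
    IsLift (f * f') (g * g') := by
  obtain ⟨h1, h2, h3⟩ := h
  obtain ⟨h1', h2', h3'⟩ := h'
  refine ⟨?_, fun k => ?_, ?_⟩
  · rw [Matrix.transpose_mul]
    calc g'.transpose * g.transpose * (g * g') = g'.transpose * (g.transpose * g) * g' := by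
          simp only [mul_assoc]
      _ = 1 := by rw [h1, mul_one, h1']
  · rw [mul_assoc, h2', mul_smul_comm, ← mul_assoc, h2, sf_mul, Equiv.Perm.mul_apply, smul_mul_assoc,
      mul_assoc, smul_smul, mul_comm (sf f')]
  · rw [sf_mul]
    exact Ps_mul h3 h3'

theorem exists_lift (f : Equiv.Perm (Fin n)) : ∃ g : Mt n, IsLift f g := by
  induction f using Equiv.Perm.swap_induction_on with
  | one => exact ⟨1, isLift_one⟩
  | swap_mul f x y hxy ih =>
    obtain ⟨g, hg⟩ := ih
    exact ⟨_, (isLift_tt hxy).mul hg⟩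

theorem ee_injective : Function.Injective (ee : Fin n → Mt n) := by
  intro i j h
  have h1 := congrFun (congrFun h 0) (dl i)
  rw [ee_zero_apply, ee_zero_apply, if_pos rfl] at h1
  by_contra hne
  have h2 : dl i ≠ dl j := by
    intro h3
    have h4 := congrFun h3 i
    simp [dl, Pi.single_apply, hne] at h4
  rw [if_neg h2] at h1
  revert h1
  decide

/-- The covering group. -/
def Gam (n : ℕ) : Subgroup (alternatingGroup (Fin n) × (Mt n)ˣ) where
  carrier := {x | (x.2 : Mt n).transpose * x.2 = 1 ∧ (x.2 : Mt n) ∈ Ps n 1 ∧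
    ∀ k, (x.2 : Mt n) * ee k = ee ((x.1 : Equiv.Perm (Fin n)) k) * x.2}
  one_mem' := by
    refine ⟨by simp, ?_, fun k => by simp⟩
    exact one_mem_Ps
  mul_mem' := by
    rintro ⟨a, u⟩ ⟨b, v⟩ ⟨h1, h2, h3⟩ ⟨h1', h2', h3'⟩
    simp only [Set.mem_setOf_eq] at h1 h2 h3 h1' h2' h3'
    refine ⟨?_, ?_, fun k => ?_⟩
    · simp only [Prod.snd_mul, Units.val_mul]
      rw [Matrix.transpose_mul]
      calc (v : Mt n).transpose * (u : Mt n).transpose * ((u : Mt n) * v)
          = (v : Mt n).transpose * ((u : Mt n).transpose * u) * v := by simp only [mul_assoc]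
        _ = 1 := by rw [h1, mul_one, h1']
    · simp only [Prod.snd_mul, Units.val_mul]
      have := Ps_mul h2 h2'
      rwa [mul_one] at this
    · simp only [Prod.snd_mul, Units.val_mul, Prod.fst_mul, Subgroup.coe_mul, Equiv.Perm.mul_apply]
      rw [mul_assoc, h3', ← mul_assoc, h3, mul_assoc]
  inv_mem' := by
    rintro ⟨a, u⟩ ⟨h1, h2, h3⟩
    simp only [Set.mem_setOf_eq] at h1 h2 h3
    have hinv : ((u⁻¹ : (Mt n)ˣ) : Mt n) = (u : Mt n).transpose := by
      have h4 : ((u⁻¹ : (Mt n)ˣ) : Mt n) * u = 1 := by simp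
      calc ((u⁻¹ : (Mt n)ˣ) : Mt n) = ((u⁻¹ : (Mt n)ˣ) : Mt n) * (u * (u : Mt n).transpose) := by
            rw [mul_eq_one_comm.mp h1, mul_one]
        _ = (u : Mt n).transpose := by rw [← mul_assoc, h4, one_mul]
    refine ⟨?_, ?_, fun k => ?_⟩
    · simp only [Prod.snd_inv]
      rw [hinv, Matrix.transpose_transpose]
      exact mul_eq_one_comm.mp h1
    · simp only [Prod.snd_inv]
      rw [hinv]
      exact Ps_transpose h2
    · simp only [Prod.snd_inv, Prod.fst_inv]
      have h5 := h3 ((a : Equiv.Perm (Fin n))⁻¹ k)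
      have h6 : (a : Equiv.Perm (Fin n)) ((a : Equiv.Perm (Fin n))⁻¹ k) = k := by simp
      rw [h6] at h5
      have h7 : ((u⁻¹ : (Mt n)ˣ) : Mt n) * ((u : Mt n) * ee ((a : Equiv.Perm (Fin n))⁻¹ k)) *
          ((u⁻¹ : (Mt n)ˣ) : Mt n) =
          ((u⁻¹ : (Mt n)ˣ) : Mt n) * (ee k * u) * ((u⁻¹ : (Mt n)ˣ) : Mt n) := by rw [h5]
      simp only [mul_assoc, Units.mul_inv, mul_one] at h7
      simp only [← mul_assoc, Units.inv_mul, one_mul] at h7
      simpa using h7.symm

theorem mem_Gam {x : alternatingGroup (Fin n) × (Mt n)ˣ} : x ∈ Gam n ↔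
    (x.2 : Mt n).transpose * x.2 = 1 ∧ (x.2 : Mt n) ∈ Ps n 1 ∧
    ∀ k, (x.2 : Mt n) * ee k = ee ((x.1 : Equiv.Perm (Fin n)) k) * x.2 := Iff.rfl

/-- The central element. -/
def zz (n : ℕ) : alternatingGroup (Fin n) × (Mt n)ˣ := (1, -1)

theorem zz_mem : zz n ∈ Gam n := by
  rw [mem_Gam]
  refine ⟨?_, ?_, fun k => ?_⟩
  · simp [zz]
  · simp only [zz, Units.val_neg, Units.val_one]
    have := Submodule.neg_mem _ (one_mem_Ps (n := n))
    exact (by
      have h : (-1 : Mt n) = (-1 : Fq) • (1 : Mt n) := by simp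
      rw [h]
      exact Submodule.smul_mem _ _ one_mem_Ps)
  · simp [zz]

/-- Elements of the covering group are determined by their matrix. -/
theorem Gam_ext {x y : Gam n} (h : (x : alternatingGroup (Fin n) × (Mt n)ˣ).2 =
    (y : alternatingGroup (Fin n) × (Mt n)ˣ).2) : x = y := by
  apply Subtype.ext
  apply Prod.ext _ h
  apply Subtype.ext
  apply Equiv.ext
  intro k
  have h1 := (mem_Gam.mp x.2).2.2 k
  have h2 := (mem_Gam.mp y.2).2.2 k
  rw [h] at h1
  have h3 := h1.symm.trans h2
  have h4 := (Units.mul_left_inj (y : alternatingGroup (Fin n) × (Mt n)ˣ).2).mp h3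
  exact ee_injective h4

/-- Lifts of even permutations give elements of the covering group. -/
theorem exists_mem_of_lift {f : Equiv.Perm (Fin n)} (hf : Equiv.Perm.sign f = 1) {g : Mt n}
    (hg : IsLift f g) : ∃ x : Gam n,
      (((x : alternatingGroup (Fin n) × (Mt n)ˣ).1 : Equiv.Perm (Fin n)) = f) ∧
      (((x : alternatingGroup (Fin n) × (Mt n)ˣ).2 : Mt n) = g) := by
  obtain ⟨h1, h2, h3⟩ := hg
  have hsf : sf f = 1 := by simp [sf, hf]
  rw [hsf] at h2 h3
  let u : (Mt n)ˣ := ⟨g, g.transpose, mul_eq_one_comm.mp h1, h1⟩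
  let a : alternatingGroup (Fin n) := ⟨f, Equiv.Perm.mem_alternatingGroup.mpr hf⟩
  refine ⟨⟨(a, u), ?_⟩, rfl, rfl⟩
  rw [mem_Gam]
  refine ⟨h1, h3, fun k => ?_⟩
  have := h2 k
  rwa [one_smul] at this

/-- The projection. -/
def proj (n : ℕ) : Gam n →* alternatingGroup (Fin n) :=
  (MonoidHom.fst _ _).comp (Gam n).subtype

theorem proj_surjective : Function.Surjective (proj n) := by
  intro a
  obtain ⟨g, hg⟩ := exists_lift (a : Equiv.Perm (Fin n))
  obtain ⟨x, hx, -⟩ := exists_mem_of_lift (Equiv.Perm.mem_alternatingGroup.mp a.2) hg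
  exact ⟨x, Subtype.ext hx⟩

/-- The central element in the covering group. -/
def zg (n : ℕ) : Gam n := ⟨zz n, zz_mem⟩

theorem zg_center : zg n ∈ Subgroup.center (Gam n) := by
  rw [Subgroup.mem_center_iff]
  intro x
  apply Subtype.ext
  apply Prod.ext
  · simp [zg, zz]
  · simp [zg, zz]

theorem neg_one_ne_one (hn : 0 ≤ n) : (-1 : Mt n) ≠ 1 := by
  intro h
  have h1 := congrFun (congrFun h 0) 0
  rw [Matrix.neg_apply, Matrix.one_apply_eq] at h1
  revert h1
  decide

theorem zg_order : orderOf (zg n) = 2 := by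
  apply orderOf_eq_prime
  · apply Subtype.ext
    apply Prod.ext
    · simp [zg, zz]
    · simp [zg, zz]
  · intro h
    have h1 := congrArg (fun x : Gam n => (((x : alternatingGroup (Fin n) × (Mt n)ˣ).2 : (Mt n)ˣ) : Mt n)) h
    simp only [zg, zz, Units.val_neg, Units.val_one, Subgroup.coe_one, Prod.snd_one] at h1
    exact neg_one_ne_one (Nat.zero_le _) h1

theorem ker_proj : (proj n).ker = Subgroup.zpowers (zg n) := by
  apply le_antisymm
  · intro x hx
    have h1 : (x : alternatingGroup (Fin n) × (Mt n)ˣ).1 = 1 := hx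
    obtain ⟨h2, h3, h4⟩ := mem_Gam.mp x.2
    rw [h1] at h4
    obtain ⟨c, hc⟩ := scalar_of_commute h3 (fun k => by simpa using h4 k)
    have hc2 : c * c = 1 := by
      rw [hc] at h2
      have h5 := congrFun (congrFun h2 0) 0
      simp only [Matrix.transpose_smul, Matrix.transpose_one, smul_mul_smul_comm, mul_one,
        Matrix.smul_apply, Matrix.one_apply_eq, smul_eq_mul] at h5
      exact h5
    have hc3 : c = 1 ∨ c = -1 := by
      revert hc2
      generalize c = v
      revert v
      decide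
    rcases hc3 with rfl | rfl
    · have : x = 1 := by
        apply Gam_ext
        apply Units.ext
        simpa using hc
      rw [this]
      exact Subgroup.one_mem _
    · have : x = zg n := by
        apply Gam_ext
        apply Units.ext
        simpa [zg, zz] using hc
      rw [this]
      exact Subgroup.mem_zpowers _
  · rw [Subgroup.zpowers_le]
    show (zz n).1 = 1
    rfl

/-- The commutator. -/
theorem zg_commutator (hn : 4 ≤ n) : zg n ∈ commutator (Gam n) := by
  let i0 : Fin n := ⟨0, by omega⟩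
  let i1 : Fin n := ⟨1, by omega⟩
  let i2 : Fin n := ⟨2, by omega⟩
  let i3 : Fin n := ⟨3, by omega⟩
  have h01 : i0 ≠ i1 := by simp [i0, i1, Fin.ext_iff]
  have h02 : i0 ≠ i2 := by simp [i0, i2, Fin.ext_iff]
  have h03 : i0 ≠ i3 := by simp [i0, i3, Fin.ext_iff]
  have h12 : i1 ≠ i2 := by simp [i1, i2, Fin.ext_iff]
  have h13 : i1 ≠ i3 := by simp [i1, i3, Fin.ext_iff]
  have h23 : i2 ≠ i3 := by simp [i2, i3, Fin.ext_iff]
  have hla : IsLift (Equiv.swap i0 i1 * Equiv.swap i2 i3) (tt i0 i1 * tt i2 i3) :=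
    (isLift_tt h01).mul (isLift_tt h23)
  have hlb : IsLift (Equiv.swap i0 i2 * Equiv.swap i1 i3) (tt i0 i2 * tt i1 i3) :=
    (isLift_tt h02).mul (isLift_tt h13)
  have hsa : Equiv.Perm.sign (Equiv.swap i0 i1 * Equiv.swap i2 i3) = 1 := by
    rw [map_mul, Equiv.Perm.sign_swap h01, Equiv.Perm.sign_swap h23]
    rfl
  have hsb : Equiv.Perm.sign (Equiv.swap i0 i2 * Equiv.swap i1 i3) = 1 := by
    rw [map_mul, Equiv.Perm.sign_swap h02, Equiv.Perm.sign_swap h13]
    rfl
  obtain ⟨x, -, hx⟩ := exists_mem_of_lift hsa hla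
  obtain ⟨y, hyp, hy⟩ := exists_mem_of_lift hsb hlb
  -- the relation
  have hyk := (mem_Gam.mp y.2).2.2
  rw [hyp, hy] at hyk
  have hb : ∀ k, (tt i0 i2 * tt i1 i3) * ee k =
      ee ((Equiv.swap i0 i2 * Equiv.swap i1 i3) k) * (tt i0 i2 * tt i1 i3) := hyk
  have hb0 : (Equiv.swap i0 i2 * Equiv.swap i1 i3) i0 = i2 := by
    rw [Equiv.Perm.mul_apply, Equiv.swap_apply_of_ne_of_ne h01 h03, Equiv.swap_apply_left]
  have hb1 : (Equiv.swap i0 i2 * Equiv.swap i1 i3) i1 = i3 := by
    rw [Equiv.Perm.mul_apply, Equiv.swap_apply_left, Equiv.swap_apply_of_ne_of_ne h03.symm h23.symm]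
  have hb2 : (Equiv.swap i0 i2 * Equiv.swap i1 i3) i2 = i0 := by
    rw [Equiv.Perm.mul_apply, Equiv.swap_apply_of_ne_of_ne h12.symm h23, Equiv.swap_apply_right]
  have hb3 : (Equiv.swap i0 i2 * Equiv.swap i1 i3) i3 = i1 := by
    rw [Equiv.Perm.mul_apply, Equiv.swap_apply_right, Equiv.swap_apply_of_ne_of_ne h01.symm h12]
  set B := tt i0 i2 * tt i1 i3 with hB
  have hconj1 : B * tt i0 i1 = tt i2 i3 * B := by
    unfold tt
    rw [mul_smul_comm, smul_mul_assoc, mul_sub, sub_mul, hb, hb, hb0, hb1]
  have hconj2 : B * tt i2 i3 = tt i0 i1 * B := by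
    unfold tt
    rw [mul_smul_comm, smul_mul_assoc, mul_sub, sub_mul, hb, hb, hb2, hb3]
  have hanti : tt i2 i3 * tt i0 i1 = -(tt i0 i1 * tt i2 i3) := by
    unfold tt
    rw [smul_mul_smul_comm, smul_mul_smul_comm, ← smul_neg]
    congr 1
    have e1 := ee_anti h02
    have e2 := ee_anti h03
    have e3 := ee_anti h12
    have e4 := ee_anti h13
    have s1 : (ee i2 - ee i3) * (ee i0 - ee i1) =
        ee i2 * ee i0 - ee i2 * ee i1 - ee i3 * ee i0 + ee i3 * ee i1 := by noncomm_ring
    have s2 : (ee i0 - ee i1) * (ee i2 - ee i3) =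
        ee i0 * ee i2 - ee i0 * ee i3 - ee i1 * ee i2 + ee i1 * ee i3 := by noncomm_ring
    rw [s1, s2, e1, e2, e3, e4]
    abel
  have hrel : B * (tt i0 i1 * tt i2 i3) = -((tt i0 i1 * tt i2 i3) * B) := by
    rw [← mul_assoc, hconj1, mul_assoc, hconj2, ← mul_assoc, hanti]
    simp
  -- the commutator in the group
  have hcomm : ⁅y, x⁆ = zg n := by
    apply Gam_ext
    apply Units.ext
    have hu : ((y * x : Gam n) : alternatingGroup (Fin n) × (Mt n)ˣ).2 =
        (-1 : (Mt n)ˣ) * ((x * y : Gam n) : alternatingGroup (Fin n) × (Mt n)ˣ).2 := by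
      apply Units.ext
      simp only [Subgroup.coe_mul, Prod.snd_mul, Units.val_mul, hx, hy, Units.val_neg, Units.val_one]
      rw [hrel]
      simp
    have h5 : ⁅y, x⁆ = (y * x) * (x * y)⁻¹ := by
      rw [commutatorElement_def]
      group
    rw [h5]
    have h6 : ((y * x * (x * y)⁻¹ : Gam n) : alternatingGroup (Fin n) × (Mt n)ˣ).2 =
        ((y * x : Gam n) : alternatingGroup (Fin n) × (Mt n)ˣ).2 *
          (((x * y : Gam n) : alternatingGroup (Fin n) × (Mt n)ˣ).2)⁻¹ := rfl
    rw [h6, hu]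
    simp [zg, zz]
  rw [← hcomm]
  exact Subgroup.commutator_mem_commutator (Subgroup.mem_top y) (Subgroup.mem_top x)

theorem exists_cover (n : ℕ) (hn : 4 ≤ n) : ∃ (Γ : Type) (_ : Group Γ) (_ : Finite Γ) (z : Γ)
    (_ : z ∈ Subgroup.center Γ), orderOf z = 2 ∧ z ∈ commutator Γ ∧
      ∃ _ : (Subgroup.zpowers z).Normal, Nonempty (Γ ⧸ Subgroup.zpowers z ≃* alternatingGroup (Fin n)) := by
  refine ⟨Gam n, inferInstance, inferInstance, zg n, zg_center, zg_order, zg_commutator hn, ?_⟩
  have hN : (Subgroup.zpowers (zg n)).Normal := by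
    rw [← ker_proj]
    exact MonoidHom.normal_ker _
  refine ⟨hN, ⟨?_⟩⟩
  exact (QuotientGroup.quotientMulEquivOfEq ker_proj.symm).trans
    (QuotientGroup.quotientKerEquivOfSurjective (proj n) proj_surjective)

end Cfsg.Agent.Lib.CharDeep.SpinCover
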